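import Mathlib.GroupTheory.Perm.Cycle.Type
import Mathlib.Data.Fintype.Perm
import Mathlib.GroupTheory.SpecificGroups.Alternating
import Mathlib.GroupTheory.OrderOfElement
import Mathlib.GroupTheory.Index

/-!
Facts about the alternating group of degree 5 as a group of permutations, used for the local structure of
groups of Hall–Janko type.
-/

set_option autoImplicit false
set_option linter.style.haveILetI false
set_option synthInstance.maxSize 2000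

namespace Cfsg.Agent.J2Loc.A5

abbrev P5 : Type := Equiv.Perm (Fin 5)

/-- `(1 2 3)`. -/
def s₀ : P5 := Equiv.swap 1 2 * Equiv.swap 2 3

/-- `(0 1)(2 3)`. -/
def t₀ : P5 := Equiv.swap 0 1 * Equiv.swap 2 3

/-- `(0 2)(1 3)`. -/
def t₁ : P5 := Equiv.swap 0 2 * Equiv.swap 1 3

/-- `(0 1)(2 4)`. -/
def g₀ : P5 := Equiv.swap 0 1 * Equiv.swap 2 4

/-- A five-cycle. -/
def f₀ : P5 := Equiv.swap 0 1 * Equiv.swap 1 2 * (Equiv.swap 2 3 * Equiv.swap 3 4)

/-- The centraliser of `s₀`. -/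
def C6 : List P5 := [1, s₀, s₀ * s₀, Equiv.swap 0 4, s₀ * Equiv.swap 0 4, s₀ * s₀ * Equiv.swap 0 4]

theorem C6_comm : ∀ c ∈ C6, c * s₀ = s₀ * c ∧ c ^ 6 = 1 := by decide +kernel

theorem sign_consts : Equiv.Perm.sign s₀ = 1 ∧ Equiv.Perm.sign t₀ = 1 ∧ Equiv.Perm.sign t₁ = 1 ∧
    Equiv.Perm.sign g₀ = 1 ∧ Equiv.Perm.sign f₀ = 1 := by decide +kernel

theorem consts : s₀ * s₀ * s₀ = 1 ∧ s₀ ≠ 1 ∧ t₀ * t₀ = 1 ∧ t₀ ≠ 1 ∧ t₁ * t₁ = 1 ∧ t₁ ≠ 1 ∧
    g₀ * g₀ = 1 ∧ g₀ ≠ 1 ∧ f₀ ^ 5 = 1 ∧ f₀ ≠ 1 ∧ (s₀ * g₀) ^ 5 = 1 ∧ s₀ * g₀ ≠ 1 ∧ t₀ * t₁ = t₁ * t₀ ∧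
    t₀ * t₁ ≠ 1 := by
  decide +kernel

theorem candidates : ∀ a : P5, a * a = 1 → a ≠ 1 → Equiv.Perm.sign a = 1 → (s₀ * a) ^ 5 = 1 →
    a ∈ C6.map fun c => c * g₀ * c⁻¹ := by decide +kernel

theorem odd_power : ∀ c ∈ C6, c * g₀ = g₀ * c ∨ c ^ 3 * g₀ = g₀ * c ^ 3 ∨ c ^ 5 * g₀ = g₀ * c ^ 5 →
    c = 1 ∨ c = s₀ ∨ c = s₀ * s₀ := by decide +kernel

theorem comm_t₀ : ∀ c ∈ C6, c * t₀ = t₀ * c → c = 1 := by decide +kernel

theorem shift : ∀ a : P5, Equiv.Perm.sign a = 1 → a * a * a = 1 → a ≠ 1 →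
    a * t₀ * a⁻¹ = s₀ * t₀ * s₀⁻¹ → a * t₁ * a⁻¹ = s₀ * t₁ * s₀⁻¹ →
      a = s₀ ∨ a = t₀ * s₀ * t₀ ∨ a = t₁ * s₀ * t₁ ∨ a = t₀ * t₁ * s₀ * (t₀ * t₁) := by decide +kernel

theorem odd_split : ∀ a : P5, Equiv.Perm.sign a = 1 → ∃ b : P5, Equiv.Perm.sign b = 1 ∧ b ^ 15 = 1 ∧
    (b * a) ^ 15 = 1 := by decide +kernel

theorem conj_three : ∀ a : P5, Equiv.Perm.sign a = 1 → a ^ 3 = 1 → a ≠ 1 →
    ∃ b : P5, Equiv.Perm.sign b = 1 ∧ b * s₀ = a * b := by decide +kernel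

theorem conj_five : ∀ a : P5, Equiv.Perm.sign a = 1 → a ^ 5 = 1 → a ≠ 1 →
    ∃ b : P5, Equiv.Perm.sign b = 1 ∧ (b * f₀ = a * b ∨ b * (f₀ * f₀) = a * b) := by decide +kernel

theorem conj_two : ∀ a : P5, Equiv.Perm.sign a = 1 → a * a = 1 → a ≠ 1 →
    ∃ b : P5, Equiv.Perm.sign b = 1 ∧ b * t₀ = a * b := by decide +kernel

theorem invert_three : ∃ b : P5, Equiv.Perm.sign b = 1 ∧ b * b = 1 ∧ b ≠ 1 ∧ b * s₀ * b⁻¹ = s₀⁻¹ := by
  decide +kernel

theorem invert_five : ∃ b : P5, Equiv.Perm.sign b = 1 ∧ b * b = 1 ∧ b ≠ 1 ∧ b * f₀ * b⁻¹ = f₀⁻¹ := by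
  decide +kernel

theorem five_not_sq : ∀ b : P5, Equiv.Perm.sign b = 1 → b * f₀ * b⁻¹ ≠ f₀ * f₀ := by decide +kernel

theorem five_conj_cases : ∀ b : P5, Equiv.Perm.sign b = 1 → ∀ j : Fin 5, b * f₀ * b⁻¹ = f₀ ^ (j : ℕ) →
    j = 1 ∨ j = 4 := by decide +kernel

theorem card_centralizer_three :
    (Finset.univ.filter fun a : P5 => Equiv.Perm.sign a = 1 ∧ a * s₀ = s₀ * a).card = 3 := by
  decide +kernel

theorem card_centralizer_five :
    (Finset.univ.filter fun a : P5 => Equiv.Perm.sign a = 1 ∧ a * f₀ = f₀ * a).card = 5 := by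
  decide +kernel

theorem centralizer_t₀ : ∀ a : P5, Equiv.Perm.sign a = 1 → a * t₀ = t₀ * a →
    a = 1 ∨ a = t₀ ∨ a = t₁ ∨ a = t₀ * t₁ := by decide +kernel

theorem center_trivial : ∀ a : P5, Equiv.Perm.sign a = 1 → a * t₀ = t₀ * a → a * s₀ = s₀ * a → a = 1 := by
  decide +kernel

theorem card_centralizer : ∀ σ : P5, Equiv.Perm.sign σ = 1 → σ ≠ 1 →
    (σ ^ 3 = 1 → (Finset.univ.filter fun a : P5 => Equiv.Perm.sign a = 1 ∧ a * σ = σ * a).card = 3) ∧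
    (σ ^ 5 = 1 → (Finset.univ.filter fun a : P5 => Equiv.Perm.sign a = 1 ∧ a * σ = σ * a).card = 5) := by
  decide +kernel

theorem invariant_sets : ∀ σ : P5, Equiv.Perm.sign σ = 1 → σ ^ 3 = 1 → σ ≠ 1 →
    (Finset.univ.filter fun A : Finset (Fin 5) => Even A.card ∧ A.map σ.toEmbedding = A).card = 4 ∧
    ∀ A : Finset (Fin 5), Even A.card → A.map σ.toEmbedding = A → A ≠ ∅ → ∃ m ∈ A, σ m = m := by
  decide +kernel

section Auto

variable {K : Type*} [Group K] [Finite K]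

/-- The elements of `K` on which two embeddings agree form everything if they agree on generators. -/
theorem eq_of_agree (ι β₁ β₂ : K →* P5) (hι : Function.Injective ι)
    (hsign : ∀ k, Equiv.Perm.sign (ι k) = 1) (hsurj : ∀ a : P5, Equiv.Perm.sign a = 1 → ∃ k, ι k = a)
    {s g : K} (hs : ι s = s₀) (hg : ι g = g₀) (h1 : β₁ s = β₂ s) (h2 : β₁ g = β₂ g) :
    ∀ k, β₁ k = β₂ k := by
  classical
  let H : Subgroup K := β₁.eqLocus β₂
  suffices htop : H = ⊤ by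
    intro k
    exact show k ∈ H from htop ▸ Subgroup.mem_top k
  have hcardK : Nat.card K = 60 := by
    let e : K ≃ {a : P5 // Equiv.Perm.sign a = 1} :=
      Equiv.ofBijective (fun k => ⟨ι k, hsign k⟩)
        ⟨fun a b h => hι (congrArg Subtype.val h), fun a => (hsurj a.1 a.2).imp fun k hk => Subtype.ext hk⟩
    rw [Nat.card_congr e, Nat.card_eq_fintype_card]
    decide +kernel
  have hsH : s ∈ H := h1
  have hgH : g ∈ H := h2
  have hord : ∀ (k : K) (q : ℕ), q.Prime → ι k ^ q = 1 → ι k ≠ 1 → orderOf k = q := fun k q hq hp hne => by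
    haveI := Fact.mk hq
    exact orderOf_eq_prime (hι (by rw [map_pow, hp, map_one])) fun e => hne (by rw [e, map_one])
  obtain ⟨c3, c3', -, -, -, -, c2, c2', -, -, c5, c5', -, -⟩ := consts
  have d3 : 3 ∣ Nat.card H := by
    rw [← hord s 3 Nat.prime_three (by rw [hs, pow_succ, pow_two, c3]) (by rw [hs]; exact c3')]
    exact H.orderOf_dvd_natCard hsH
  have d2 : 2 ∣ Nat.card H := by
    rw [← hord g 2 Nat.prime_two (by rw [hg, pow_two, c2]) (by rw [hg]; exact c2')]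
    exact H.orderOf_dvd_natCard hgH
  have d5 : 5 ∣ Nat.card H := by
    rw [← hord (s * g) 5 Nat.prime_five (by rw [map_mul, hs, hg, c5]) (by rw [map_mul, hs, hg]; exact c5')]
    exact H.orderOf_dvd_natCard (mul_mem hsH hgH)
  have d30 : 30 ∣ Nat.card H := by omega
  have hle : Nat.card H ≤ 60 := hcardK ▸ Subgroup.card_le_card_group H
  have hmul := Subgroup.card_mul_index H
  rw [hcardK] at hmul
  have hpos : 0 < Nat.card H := Nat.card_pos
  rcases (by omega : Nat.card H = 30 ∨ Nat.card H = 60) with h30 | h60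
  · exfalso
    rw [h30] at hmul
    have hidx : H.index = 2 := by omega
    have hsq : ∀ k : K, k * k ∈ H := fun k => Subgroup.mul_self_mem_of_index_two hidx k
    have h15 : ∀ k : K, k ^ 15 = 1 → k ∈ H := fun k hk => by
      have h16 : k = k ^ 8 * k ^ 8 := by
        rw [← pow_add, show 8 + 8 = 15 + 1 by rfl, pow_succ, hk, one_mul]
      exact h16 ▸ hsq _
    have : H = ⊤ := Subgroup.ext fun k => ⟨fun _ => Subgroup.mem_top k, fun _ => by
      obtain ⟨b, hb, hb15, hba⟩ := odd_split (ι k) (hsign k)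
      obtain ⟨b', hb'⟩ := hsurj b hb
      have e1 : b' ∈ H := h15 b' (hι (by rw [map_pow, hb', hb15, map_one]))
      have e2 : b' * k ∈ H := h15 _ (hι (by rw [map_pow, map_mul, hb', hba, map_one]))
      exact (H.mul_mem_cancel_left e1).1 e2⟩
    rw [this, Subgroup.index_top] at hidx
    omega
  · exact Subgroup.eq_top_of_card_eq H (h60.trans hcardK.symm)

/-- An embedding agreeing with the given one at the element of order 3 is a conjugate of it. -/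
theorem exists_conj_of_fix (ι β : K →* P5) (hι : Function.Injective ι) (hβ : Function.Injective β)
    (hsign : ∀ k, Equiv.Perm.sign (ι k) = 1) (hsign' : ∀ k, Equiv.Perm.sign (β k) = 1)
    (hsurj : ∀ a : P5, Equiv.Perm.sign a = 1 → ∃ k, ι k = a)
    {s g : K} (hs : ι s = s₀) (hg : ι g = g₀) (hβs : β s = s₀) :
    ∃ c ∈ C6, ∀ k, β k = c * ι k * c⁻¹ := by
  obtain ⟨-, -, -, -, -, -, c2, c2', -, -, c5, -, -, -⟩ := consts
  have hgg : g * g = 1 := hι (by rw [map_mul, hg, c2, map_one])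
  have hg1 : g ≠ 1 := fun e => c2' (by rw [← hg, e, map_one])
  have hsg : (s * g) ^ 5 = 1 := hι (by rw [map_pow, map_mul, hs, hg, c5, map_one])
  obtain ⟨c, hc, hcg⟩ := List.mem_map.1 (candidates (β g) (by rw [← map_mul, hgg, map_one])
    (fun e => hg1 (hβ (by rw [e, map_one]))) (hsign' g) (by rw [← hβs, ← map_mul, ← map_pow, hsg, map_one]))
  refine ⟨c, hc, eq_of_agree ι β ((MulAut.conj c).toMonoidHom.comp ι) hι hsign hsurj hs hg ?_ ?_⟩
  · show β s = c * ι s * c⁻¹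
    rw [hβs, hs, (C6_comm c hc).1, mul_inv_cancel_right]
  · show β g = c * ι g * c⁻¹
    rw [hg, ← hcg]

end Auto

end Cfsg.Agent.J2Loc.A5
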